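import Mathlib
import Cfsg.Agent.Lib.FiOdd.Elem

/-! Elements of order 13 centralised by two commuting symmetric groups of degree three -/

set_option autoImplicit false

namespace CfsgLib.FiOdd

open Cfsg Subgroup CfsgLib.Core CfsgLib.ThreeTrans

variable {G : Type*} [Group G] [Finite G] {D : Set G}

theorem card_closure_pair (hD : IsThreeTranspositionSet D) {a d : G} (ha : a ∈ D) (hd : d ∈ D) (h : ¬ Commute a d) :
    Nat.card (closure ({a, d} : Set G)) = 6 := by
  have h1 := (sym_of_cox (f := fun i => if i = 0 then a else d) (n := 2) (S := closure {a, d})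
    (fun i _ => by split_ifs; exacts [sq hD ha, sq hD hd]) (fun i hi => by
      obtain rfl : i = 0 := by omega
      simpa using braid hD ha hd h) (fun i j _ _ => by omega) (closure_mono (by
      rintro _ (rfl | rfl); exacts [⟨0, by simp⟩, ⟨1, by simp⟩]))).1
  have h2 := orderOf_dvd_natCard (⟨a, subset_closure (by simp)⟩ : closure ({a, d} : Set G))
  have h3 := orderOf_dvd_natCard (⟨a * d, mul_mem (subset_closure (by simp)) (subset_closure (by simp))⟩ :
    closure ({a, d} : Set G))
  rw [← orderOf_coe] at h2 h3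
  rw [hD.1 a ha] at h2
  rw [orderOf_mul_of_not_commute hD ha hd h] at h3
  have : 0 < Nat.card (closure ({a, d} : Set G)) := Nat.card_pos
  simp only [Nat.factorial] at h1
  omega

theorem card_cjPerm {N : Subgroup G} {T : Set G} (h : ∀ n ∈ N, ∀ x ∈ T, n * x * n⁻¹ ∈ T) :
    ∃ j, j ∣ T.ncard.factorial ∧ Nat.card N = j * Nat.card (N ⊓ centralizer T : Subgroup G) := by
  have h2 : (cjPerm h).ker = (N ⊓ centralizer T).subgroupOf N := by
    ext n
    rw [MonoidHom.mem_ker, mem_subgroupOf, mem_inf, mem_centralizer_iff, and_iff_right n.2]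
    refine ⟨fun e x hx => ?_, fun e => Equiv.ext fun x => Subtype.ext ?_⟩
    · exact (mul_inv_eq_iff_eq_mul.1 (congrArg (fun σ : Equiv.Perm T => (σ ⟨x, hx⟩ : G)) e)).symm
    · exact mul_inv_eq_iff_eq_mul.2 (e x x.2).symm
  refine ⟨Nat.card (cjPerm h).range, ?_, ?_⟩
  · rw [← Nat.card_coe_set_eq, ← Nat.card_perm]; exact card_subgroup_dvd_card _
  · rw [← (cjPerm h).ker.index_mul_card, index_ker, h2, Nat.card_congr (subgroupOfEquivOfLe inf_le_left).toEquiv]

/-- the conclusion of the row -/
def Row13 (T K B : Subgroup G) : Prop :=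
  normalizer (B : Set G) ≤ normalizer (K : Set G) ∧ Nat.card (K ⊓ normalizer (B : Set G) : Subgroup G) = 78 ∧
    K ⊓ centralizer (B : Set G) = B ∧ (((K ⊓ normalizer (B : Set G)) ⊔ T).subgroupOf (normalizer (B : Set G))).index = 2

theorem row13 (hD : IsThreeTranspositionGroup D) (hA : Nat.card G = 2510411418381323442585600) {x a b c d : G}
    (hx : orderOf x = 13) (hm : ∀ y ∈ [a, d, b, c], y ∈ D ∧ Commute x y) (had : ¬ Commute a d) (hbc : ¬ Commute b c)
    (hab : Commute a b) (hac : Commute a c) (hdb : Commute d b) (hdc : Commute d c) {T K : Subgroup G}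
    (hT : T = closure {a, b, c, d}) (hK : K = centralizer (T : Set G)) (hc : Nat.card K = 4245696)
    (hS : D ∩ (centralizer (zpowers x : Set G) : Set G) ⊆ T)
    (h6 : (D ∩ (centralizer (zpowers x : Set G) : Set G)).ncard = 6)
    (hC : Nat.card (K ⊓ centralizer (zpowers x : Set G) : Subgroup G) = 13) : Row13 T K (zpowers x) := by
  have : Fact (Nat.Prime 13) := ⟨by norm_num⟩
  simp only [List.forall_mem_cons] at hm
  obtain ⟨⟨ha, xa⟩, ⟨hd, xd⟩, ⟨hb, xb⟩, ⟨hc', xc⟩, -⟩ := hm
  have hB : Nat.card (zpowers x) = 13 := by rw [Nat.card_zpowers, hx]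
  have h1 : closure (D ∩ (centralizer (zpowers x : Set G) : Set G)) = T := le_antisymm ((closure_le _).2 hS)
    (hT ▸ closure_mono (by rintro _ (rfl | rfl | rfl | rfl) <;> exact ⟨‹_›, mem_cent_zpowers.2 ‹_›⟩))
  have h2 : T ≤ centralizer (zpowers x : Set G) := h1 ▸ (closure_le _).2 Set.inter_subset_right
  have h3 : K = centralizer (D ∩ (centralizer (zpowers x : Set G) : Set G)) := by rw [hK, ← h1, centralizer_closure]
  have hxK : x ∈ K := hK ▸ fun y hy => (mem_cent_zpowers.1 (h2 hy)).symm
  have h4 : K ⊓ centralizer (zpowers x : Set G) = zpowers x := (eq_of_le_of_card_le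
    (zpowers_le.2 (mem_inf.2 ⟨hxK, mem_cent_zpowers.2 (Commute.refl x)⟩)) (hC.trans hB.symm).le).symm
  have e : zpowers (⟨x, hxK⟩ : K) = (zpowers x).subgroupOf K := by
    rw [← map_subtype_inj, MonoidHom.map_zpowers, subgroupOf_map_subtype, inf_eq_left.2 (zpowers_le.2 hxK)]; rfl
  have h5 : Nat.card (K ⊓ normalizer (zpowers x : Set G) : Subgroup G) = 78 := by
    have := card_norm_eq (p := 13) (x := (⟨x, hxK⟩ : K)) (t := 1) (k := 1) (q := 6) (c := 13) (by norm_num)
      (by rw [← orderOf_coe, hx]) (by simp) hc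
      (by rw [e, centralizer_subgroupOf_of_le (zpowers_le.2 hxK), card_subgroupOf, inf_comm, hC]) (by decide +kernel)
    rwa [e, ← subgroupOf_normalizer_eq (zpowers_le.2 hxK), card_subgroupOf, inf_comm] at this
  have h7 : ∀ {L : Subgroup G}, L ≤ K → L ≤ T → Nat.Coprime (Nat.card L) 13 → L = ⊥ := fun h h' h'' =>
    card_eq_one.1 (h''.eq_one_of_dvd (hB ▸ card_dvd_of_le (h4 ▸ le_inf h (h'.trans h2))))
  have h8 : ∀ u ∈ closure ({a, d} : Set G), ∀ v ∈ closure ({b, c} : Set G), u * v = v * u := fun u hu v hv =>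
    ((closure_le (centralizer (closure ({b, c} : Set G) : Set G))).2 (by
      rw [centralizer_closure]
      rintro _ (rfl | rfl) _ (rfl | rfl)
      exacts [hab.symm, hac.symm, hdb.symm, hdc.symm]) hu v hv).symm
  have h9 : closure ({a, d} : Set G) ⊔ closure {b, c} = T := by
    rw [hT, ← Subgroup.closure_union]; congr 1; ext; simp only [Set.mem_union, Set.mem_insert_iff, Set.mem_singleton_iff]; tauto
  have h10 : Nat.card T = 36 := by
    rw [← h9, card_sup_of_le_normalizer_of_disjoint (le_norm_of_commute h8) (h7 (fun z hz => ?_)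
      (inf_le_left.trans (le_sup_left.trans h9.le)) (Nat.Coprime.coprime_dvd_left
        (card_closure_pair hD.1 ha hd had ▸ card_dvd_of_le inf_le_left) (by norm_num))),
      card_closure_pair hD.1 ha hd had, card_closure_pair hD.1 hb hc' hbc]
    rw [hK, hT, centralizer_closure]
    rintro _ (rfl | rfl | rfl | rfl)
    exacts [h8 _ (subset_closure (by simp)) _ hz.2, (h8 _ hz.1 _ (subset_closure (by simp))).symm,
      (h8 _ hz.1 _ (subset_closure (by simp))).symm, h8 _ (subset_closure (by simp)) _ hz.2]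
  have h11 : Nat.card (K ⊓ normalizer (zpowers x : Set G) ⊔ T : Subgroup G) = 2808 := by
    rw [card_sup_of_le_normalizer_of_disjoint (le_norm_of_commute fun u hu v hv => (hK.le (mem_inf.1 hu).1 v hv).symm)
      (h7 (inf_le_left.trans inf_le_left) inf_le_right (Nat.Coprime.coprime_dvd_left
        (h10 ▸ card_dvd_of_le inf_le_right) (by norm_num))), h5, h10]
  obtain ⟨j, hj, h12⟩ := card_cjPerm (conj_mem_fix (X := zpowers x) hD.2.1)
  rw [← h3, inf_comm, h5] at h12
  rw [h6] at hj
  have h13 := (((K ⊓ normalizer (zpowers x : Set G)) ⊔ T).subgroupOf (normalizer (zpowers x : Set G))).index_mul_card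
  rw [card_subgroupOf_of_le (sup_le inf_le_right (h2.trans (centralizer_le_normalizer _))), h11] at h13
  obtain ⟨S, hSx⟩ := exists_sylow_of_card (p := 13) (k := 1) (X := zpowers x) (hB.trans (pow_one _).symm)
    (by rw [hA]; norm_num)
  have h14 := (sylow_index S hA (Eq.trans (by rw [← hSx]; rfl) h13.symm)).2
  refine ⟨fun n hn => ?_, h5, h4, ?_⟩
  · refine mem_normalizer_of_forall_conj_mem fun k hk => h3.ge fun y hy => ?_
    have := h3.le hk _ (conj_mem_fix hD.2.1 _ (inv_mem hn) y hy)
    calc y * (n * k * n⁻¹) = n * (n⁻¹ * y * n⁻¹⁻¹ * k) * n⁻¹ := by group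
      _ = _ := by rw [this]; group
  · generalize ((K ⊓ normalizer (zpowers x : Set G) ⊔ T).subgroupOf (normalizer (zpowers x : Set G))).index = i at *
    obtain rfl : j = 36 * i := by omega
    have h15 : i ∣ 20 := Nat.dvd_of_mul_dvd_mul_left (k := 36) (by norm_num) hj
    have := Nat.le_of_dvd (by norm_num) h15
    interval_cases i <;> omega

end CfsgLib.FiOdd
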